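-- Team project OPARM (S5991): the cut of package [UNIME] (helper64).
-- `k` odd (`d = k + 1` even): the unipotent element `[J_3, J_2^(k-1), J_1]` of `Ω⁻_{2k+2}(q)`.
-- Its invariant nondegenerate subspaces of odd dimension exist, but their isometry class is
-- forced by the square class of `Q t`, `t` the fixed anisotropic vector.
import Mathlib
import Cfsg.Prelude.Def_GeometricClasses
import Cfsg.Prelude.Def_Classical
import Cfsg.Agent.Lib.Helper64.OParM.Defs

set_option autoImplicit false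
open scoped MatrixGroups
open Matrix

namespace Cfsg.Agent.Lib.Helper64.OParM

open Cfsg.Agent.Lib.Helper23.OHyp Cfsg.Agent.Lib.Helper70.OPar

universe u

/-- [UEA] abstract structure lemma.  `1 + N` an isometry of the symmetric form `B`, `N ^ 3 = 0`,
`ker N ⊆ F t + range N` with `N t = 0`, `rank N ^ 2 ≤ 1`.  Then an `N`-invariant subspace `W` with
`B` nondegenerate on it and `dim W ≡ 1 (mod 4)` contains a fixed vector `w` with
`B w w = c ^ 2 * B t t`, `c ≠ 0`, and a totally isotropic `U ≤ W ∩ w^⊥` with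
`2 dim U + 1 = dim W`. -/
def PkgUEA : Prop :=
  ∀ (F : Type u) [Field F] (V : Type u) [AddCommGroup V] [Module F V] [FiniteDimensional F V],
    (2 : F) ≠ 0 →
    ∀ (B : V →ₗ[F] V →ₗ[F] F) (N : V →ₗ[F] V) (t : V),
      (∀ u v, B u v = B v u) →
      (∀ u v, B (u + N u) (v + N v) = B u v) →
      (∀ v, N (N (N v)) = 0) →
      N t = 0 →
      (∀ v, N v = 0 → ∃ (c : F) (u : V), v = c • t + N u) →
      Module.finrank F (LinearMap.range (N ∘ₗ N)) ≤ 1 →
      ∀ W : Submodule F V, (∀ w ∈ W, N w ∈ W) →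
        (∀ w ∈ W, w ≠ 0 → ∃ v ∈ W, B w v ≠ 0) →
        Module.finrank F W % 4 = 1 →
        ∃ w ∈ W, ∃ c : F, c ≠ 0 ∧ B w w = c ^ 2 * B t t ∧
          ∃ U : Submodule F V, U ≤ W ∧ (∀ u ∈ U, B u u = 0) ∧ (∀ u ∈ U, B u w = 0) ∧
            2 * Module.finrank F U + 1 = Module.finrank F W

/-- [UEL] in a nondegenerate subspace `W` of odd dimension `2 j + 1`, two anisotropic vectors
`w₁`, `w₂` each orthogonal to a totally singular `j`-subspace of `W` have `Q`-values in the same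
square class. -/
def PkgUEL : Prop :=
  ∀ (F : Type u) [Field F] [Fintype F] (ι : Type) [Fintype ι] [DecidableEq ι]
    (Q : (ι → F) → F), Cfsg.Geo.IsNondegenerateQuadraticForm Q → (2 : F) ≠ 0 →
    ∀ (W : Submodule F (ι → F)), Nd Q W →
    ∀ (w₁ w₂ : ι → F), w₁ ∈ W → w₂ ∈ W → Q w₁ ≠ 0 → Q w₂ ≠ 0 →
    ∀ (U₁ U₂ : Submodule F (ι → F)), U₁ ≤ W → U₂ ≤ W →
      (∀ u ∈ U₁, Q u = 0) → (∀ u ∈ U₂, Q u = 0) →
      (∀ u ∈ U₁, QuadraticMap.polar Q u w₁ = 0) → (∀ u ∈ U₂, QuadraticMap.polar Q u w₂ = 0) →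
      2 * Module.finrank F U₁ + 1 = Module.finrank F W →
      2 * Module.finrank F U₂ + 1 = Module.finrank F W →
      ∃ c : F, Q w₁ = c ^ 2 * Q w₂

/-- [UEX] the element `x = [J_3, J_2^(k-1), J_1]` of `Ω⁻` (`k` odd) whose fixed anisotropic
vector `t` has a prescribed value `Q t = s`; `N = x - 1`. -/
def PkgUEX : Prop :=
  ∀ (F : Type u) [Field F] [Fintype F] (p : ℕ) [Fact p.Prime] [CharP F p], p ≠ 2 →
    ∀ (k : ℕ) (a b : F), Aniso a b → Odd k → ∀ s : F, s ≠ 0 →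
    ∃ (x : GL (MI k) F) (t : MI k → F),
      x ∈ Cfsg.Geo.omegaGL (Cfsg.quadFormMinus k F a b) ∧ x ^ p = 1 ∧ x ≠ 1 ∧
      Cfsg.quadFormMinus k F a b t = s ∧
      ((x : Matrix (MI k) (MI k) F) - 1) * ((x : Matrix (MI k) (MI k) F) - 1) *
        ((x : Matrix (MI k) (MI k) F) - 1) = 0 ∧
      ((x : Matrix (MI k) (MI k) F) - 1) *ᵥ t = 0 ∧
      (∀ v : MI k → F, ((x : Matrix (MI k) (MI k) F) - 1) *ᵥ v = 0 →
        ∃ (c : F) (u : MI k → F), v = c • t + ((x : Matrix (MI k) (MI k) F) - 1) *ᵥ u) ∧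
      Module.finrank F (LinearMap.range (Matrix.toLin'
        (((x : Matrix (MI k) (MI k) F) - 1) * ((x : Matrix (MI k) (MI k) F) - 1)))) ≤ 1

/-- [UEW] Witt: an isometry between two subspaces is induced by an element of the isometry
group. -/
def PkgUEW : Prop :=
  ∀ (F : Type u) [Field F] [Fintype F] (ι : Type) [Fintype ι] [DecidableEq ι]
    (Q : (ι → F) → F), Cfsg.Geo.IsNondegenerateQuadraticForm Q →
    ∀ (W W' : Submodule F (ι → F)), Cfsg.Geo.AreIsometricFor Q W W' →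
      ∃ g : GL ι F, g ∈ Cfsg.isometryGroup F Q ∧
        W.map (Matrix.toLin' (g : Matrix ι ι F)) = W'

/-- [UEGLUE] the assembly of [UNIME]. -/
def PkgUEGlue : Prop :=
  PkgUEA.{u} → PkgUEL.{u} → PkgUEX.{u} → PkgUEW.{u} → PkgMinusQ.{u} → PkgPerp.{u} → PkgUniME.{u}

end Cfsg.Agent.Lib.Helper64.OParM
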