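-- Team project OPARM (S5991): main assembly from helper70's generic level-1 packages and the
-- minus-specific packages (helper64).
import Mathlib
import Cfsg.Prelude.Def_GeometricClasses
import Cfsg.Prelude.Def_Classical
import Cfsg.Agent.Lib.Helper64.OParM.Defs

set_option autoImplicit false
open scoped MatrixGroups
open Matrix

namespace Cfsg.Agent.Lib.Helper64.OParM

open Cfsg.Agent.Lib.Helper23.OHyp Cfsg.Agent.Lib.Helper70.OPar

universe u

theorem oparm_mod_pos {m c : ℕ} (hm : Odd m) (hc : Even c) : 0 < m % c := by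
  have h2 : 2 ∣ c := hc.two_dvd
  have h1 : m % c % 2 = m % 2 := Nat.mod_mod_of_dvd m h2
  have h3 : m % 2 = 1 := Nat.odd_iff.mp hm
  omega

theorem main (hTwo : PkgTwo.{u}) (hPos : PkgPos.{u}) (hNeg : PkgNeg.{u})
    (hMinusQ : PkgMinusQ.{u}) (hOm1M : PkgOm1M.{u}) (hOm2MA : PkgOm2MA.{u})
    (hOm2MB : PkgOm2MB.{u}) (hExe0M : PkgExe0M.{u})
    (hUniM3 : PkgUniM3.{u}) (hUniM1 : PkgUniM1.{u}) (hUniME : PkgUniME.{u})
    {F : Type u} [Field F] [Fintype F] {p : ℕ} [Fact p.Prime] [CharP F p] {q : ℕ} (hq : Fintype.card F = q)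
    (hodd : Odd q) (d m : ℕ) (hd : 4 ≤ d) (hm : Odd m) (hmd : m < d) (a b : F) (hab : ∀ x y : F, x ^ 2 + a * x * y + b * y ^ 2 = 0 → x = 0 ∧ y = 0)
    (W₀ : Submodule F ((Fin (d - 1) ⊕ Fin (d - 1)) ⊕ Fin 2 → F)) (hW₀ : Module.finrank F ↥W₀ = m ∧ Cfsg.Geo.IsNondegenerateOn (QuadraticMap.polar (Cfsg.quadFormMinus (d - 1) F a b)) W₀)
    (r : ℕ) [Fact r.Prime]
    (hrΩ : r ∣ Nat.card {W : Submodule F ((Fin (d - 1) ⊕ Fin (d - 1)) ⊕ Fin 2 → F) // Module.finrank F ↥W = m ∧ Cfsg.Geo.IsNondegenerateOn (QuadraticMap.polar (Cfsg.quadFormMinus (d - 1) F a b)) W ∧ Cfsg.Geo.AreIsometricFor (Cfsg.quadFormMinus (d - 1) F a b) W W₀})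
    (i c : ℕ) (hi : i = orderOf (q : ZMod r)) (hc : c = if Even i then i else 2 * i) :
    (∀ x : GL ((Fin (d - 1) ⊕ Fin (d - 1)) ⊕ Fin 2) F, x ∈ Cfsg.Geo.omegaGL (Cfsg.quadFormMinus (d - 1) F a b) →
      (∃ z : F, ((x ^ r : GL ((Fin (d - 1) ⊕ Fin (d - 1)) ⊕ Fin 2) F) : Matrix ((Fin (d - 1) ⊕ Fin (d - 1)) ⊕ Fin 2) ((Fin (d - 1) ⊕ Fin (d - 1)) ⊕ Fin 2) F) = z • (1 : Matrix ((Fin (d - 1) ⊕ Fin (d - 1)) ⊕ Fin 2) ((Fin (d - 1) ⊕ Fin (d - 1)) ⊕ Fin 2) F)) →
      (∀ z : F, (x : Matrix ((Fin (d - 1) ⊕ Fin (d - 1)) ⊕ Fin 2) ((Fin (d - 1) ⊕ Fin (d - 1)) ⊕ Fin 2) F) ≠ z • (1 : Matrix ((Fin (d - 1) ⊕ Fin (d - 1)) ⊕ Fin 2) ((Fin (d - 1) ⊕ Fin (d - 1)) ⊕ Fin 2) F)) →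
      ∃ W : Submodule F ((Fin (d - 1) ⊕ Fin (d - 1)) ⊕ Fin 2 → F), (Module.finrank F ↥W = m ∧ Cfsg.Geo.IsNondegenerateOn (QuadraticMap.polar (Cfsg.quadFormMinus (d - 1) F a b)) W ∧ Cfsg.Geo.AreIsometricFor (Cfsg.quadFormMinus (d - 1) F a b) W W₀) ∧ W.map (Matrix.toLin' (x : Matrix ((Fin (d - 1) ⊕ Fin (d - 1)) ⊕ Fin 2) ((Fin (d - 1) ⊕ Fin (d - 1)) ⊕ Fin 2) F)) ≤ W) ↔
    ((r = 2 ∧ (Even d ∨ q % 8 ≠ 7)) ∨
     (r ≠ p ∧ 2 < r ∧ Odd i ∧ ((2 * d) % c = 0 ∨ (c ≤ m ∧ 0 < m % c ∧ m % c < (2 * d) % c))) ∨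
     (r ≠ p ∧ 2 < r ∧ Even i ∧ (((2 * d) % c = 0 ∧ Even ((2 * d) / i)) ∨ (0 < (2 * d) % c ∧ i ≤ m ∧ 0 < m % c ∧ m % c < (2 * d) % c)))) := by
  subst hq
  have hpprime : p.Prime := Fact.out
  have hrprime : r.Prime := Fact.out
  obtain ⟨e, -, he⟩ := FiniteField.card F p
  have hp2 : p ≠ 2 := by
    rintro rfl
    rw [he] at hodd
    have : Even (2 ^ (e : ℕ)) := (Nat.even_pow.mpr ⟨even_two, e.pos.ne'⟩)
    exact (Nat.not_odd_iff_even.mpr this) hodd
  have h2 : (2 : F) ≠ 0 := by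
    intro h
    have h' : ((2 : ℕ) : F) = 0 := by exact_mod_cast h
    rw [CharP.cast_eq_zero_iff F p] at h'
    exact hp2 ((Nat.prime_dvd_prime_iff_eq hpprime Nat.prime_two).mp h')
  have habA : Aniso a b := hab
  obtain ⟨hQnd, hQnotplus⟩ := hMinusQ F h2 (d - 1) a b habA
  have hcard : Fintype.card ((Fin (d - 1) ⊕ Fin (d - 1)) ⊕ Fin 2) = 2 * d := by
    simp
    omega
  have hk2 : 2 * (d - 1) + 2 = 2 * d := by omega
  have hi' : ordI (Fintype.card F) r = i := hi.symm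
  have hc' : cc (Fintype.card F) r = c := by
    rw [hc]; unfold cc; rw [hi']
  have hceven : Even c := by
    rw [hc]
    split_ifs with h
    · exact h
    · exact even_two_mul i
  have hml : 0 < m % c := oparm_mod_pos hm hceven
  have hW₀m := hW₀.1
  have hW₀nd : Nd (Cfsg.quadFormMinus (d - 1) F a b) W₀ := hW₀.2
  change Fix (Cfsg.quadFormMinus (d - 1) F a b) W₀ m r ↔ _
  by_cases hr2 : r = 2
  · subst hr2
    rw [hTwo F ((Fin (d - 1) ⊕ Fin (d - 1)) ⊕ Fin 2) (Cfsg.quadFormMinus (d - 1) F a b) hQnd h2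
      W₀ m hm (by rw [hcard]; omega) hW₀m hW₀nd]
    constructor
    · intro hno
      left
      refine ⟨rfl, ?_⟩
      by_contra hcon
      push Not at hcon
      obtain ⟨hdo, h8⟩ := hcon
      have hdodd : Odd d := Nat.not_even_iff_odd.mp hdo
      have hke : Even (d - 1) := by
        obtain ⟨t, ht⟩ := hdodd
        exact ⟨t, by omega⟩
      exact hno (hOm1M F h8 (d - 1) hke a b habA)
    · rintro (⟨-, hcond⟩ | ⟨-, h2r, -⟩ | ⟨-, h2r, -⟩)
      · rintro ⟨x, hxΩ, hxx⟩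
        obtain ⟨hke, h4⟩ := hOm2MA F hodd (d - 1) a b habA x hxΩ hxx
        have hdodd : ¬ Even d := by
          obtain ⟨t, ht⟩ := hke
          rintro ⟨s, hs⟩
          omega
        have h8 : Fintype.card F % 8 ≠ 7 := by
          rcases hcond with h | h
          · exact absurd h hdodd
          · exact h
        have h3 : Fintype.card F % 8 = 3 := by omega
        exact hOm2MB F h3 (d - 1) hke a b habA x hxΩ hxx
      · omega
      · omega
  · have hr2' : 2 < r := lt_of_le_of_ne hrprime.two_le (Ne.symm hr2)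
    by_cases hrp : r = p
    · subst hrp
      constructor
      · intro hFix
        exfalso
        have hU : UniConclM F r (d - 1) m a b W₀ := by
          rcases Nat.even_or_odd (d - 1) with hke | hko
          · have hm4 : m % 4 = 1 ∨ m % 4 = 3 := by
              obtain ⟨k, hk⟩ := hm
              omega
            rcases hm4 with h1 | h3
            · exact hUniM1 F r hp2 (d - 1) m a b habA (by omega) hm (by omega) hke h1 W₀ hW₀m
                hW₀nd
            · exact hUniM3 F r hp2 (d - 1) m a b habA (by omega) hm (by omega) hke h3 W₀ hW₀m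
                hW₀nd
          · exact hUniME F r hp2 (d - 1) m a b habA (by omega) hm (by omega) hko W₀ hW₀m hW₀nd
        obtain ⟨x, hxΩ, hxp, hx1, hno⟩ := hU
        have hscal : ∃ z : F, ((x ^ r : GL ((Fin (d - 1) ⊕ Fin (d - 1)) ⊕ Fin 2) F) : Matrix ((Fin (d - 1) ⊕ Fin (d - 1)) ⊕ Fin 2) ((Fin (d - 1) ⊕ Fin (d - 1)) ⊕ Fin 2) F) = z • (1 : Matrix ((Fin (d - 1) ⊕ Fin (d - 1)) ⊕ Fin 2) ((Fin (d - 1) ⊕ Fin (d - 1)) ⊕ Fin 2) F) := by
          refine ⟨1, ?_⟩
          rw [hxp, one_smul]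
          rfl
        have hns : ∀ z : F, (x : Matrix ((Fin (d - 1) ⊕ Fin (d - 1)) ⊕ Fin 2) ((Fin (d - 1) ⊕ Fin (d - 1)) ⊕ Fin 2) F) ≠ z • (1 : Matrix ((Fin (d - 1) ⊕ Fin (d - 1)) ⊕ Fin 2) ((Fin (d - 1) ⊕ Fin (d - 1)) ⊕ Fin 2) F) := by
          intro z hz
          have h1 : ((x ^ r : GL ((Fin (d - 1) ⊕ Fin (d - 1)) ⊕ Fin 2) F) : Matrix ((Fin (d - 1) ⊕ Fin (d - 1)) ⊕ Fin 2) ((Fin (d - 1) ⊕ Fin (d - 1)) ⊕ Fin 2) F) = (z ^ r) • (1 : Matrix ((Fin (d - 1) ⊕ Fin (d - 1)) ⊕ Fin 2) ((Fin (d - 1) ⊕ Fin (d - 1)) ⊕ Fin 2) F) := by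
            rw [Units.val_pow_eq_pow_val, hz, smul_pow, one_pow]
          rw [hxp] at h1
          have h2' := congrFun (congrFun h1 (Sum.inr 0)) (Sum.inr 0)
          simp at h2'
          have h3 : (z - 1) ^ r = 0 := by
            rw [sub_pow_char, one_pow, ← h2', sub_self]
          have h4 : z = 1 := by
            have := pow_eq_zero_iff (hrprime.ne_zero) |>.mp h3
            exact sub_eq_zero.mp this
          apply hx1
          apply Units.ext
          rw [hz, h4, one_smul]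
          rfl
        obtain ⟨W, hW, hWinv⟩ := hFix x hxΩ hscal hns
        exact hno W hW hWinv
      · rintro (⟨h, -⟩ | ⟨h, -⟩ | ⟨h, -⟩)
        · exact absurd h hr2
        · exact absurd rfl h
        · exact absurd rfl h
    · have hrq : ¬ r ∣ Fintype.card F := by
        rw [he]
        intro h
        have := hrprime.dvd_of_dvd_pow h
        exact hrp ((Nat.prime_dvd_prime_iff_eq hrprime hpprime).mp this)
      have hmn : m < Fintype.card ((Fin (d - 1) ⊕ Fin (d - 1)) ⊕ Fin 2) := by rw [hcard]; omega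
      have hneven : Even (Fintype.card ((Fin (d - 1) ⊕ Fin (d - 1)) ⊕ Fin 2)) := by
        rw [hcard]; exact even_two_mul d
      constructor
      · intro hFix
        have hE0 : Fintype.card ((Fin (d - 1) ⊕ Fin (d - 1)) ⊕ Fin 2) % cc (Fintype.card F) r = 0 →
            (Plus (Cfsg.quadFormMinus (d - 1) F a b) ⊤ ↔ (Odd (ordI (Fintype.card F) r) ∨
              Even (Fintype.card ((Fin (d - 1) ⊕ Fin (d - 1)) ⊕ Fin 2) / ordI (Fintype.card F) r))) →
            ∃ x : GL ((Fin (d - 1) ⊕ Fin (d - 1)) ⊕ Fin 2) F,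
              x ∈ Cfsg.isometryGroup F (Cfsg.quadFormMinus (d - 1) F a b) ∧
              orderOf x = r ∧
              Module.finrank F (fixSp (x : Matrix ((Fin (d - 1) ⊕ Fin (d - 1)) ⊕ Fin 2) ((Fin (d - 1) ⊕ Fin (d - 1)) ⊕ Fin 2) F)) = 0 := by
          intro hk hty
          have h1 : ¬ (Odd (ordI (Fintype.card F) r) ∨
              Even (Fintype.card ((Fin (d - 1) ⊕ Fin (d - 1)) ⊕ Fin 2) / ordI (Fintype.card F) r)) :=
            fun h => hQnotplus (hty.mpr h)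
          rw [hcard] at hk h1
          push Not at h1
          have hie : Even (ordI (Fintype.card F) r) := Nat.not_odd_iff_even.mp h1.1
          have hqo : Odd (2 * d / ordI (Fintype.card F) r) := Nat.not_even_iff_odd.mp h1.2
          exact hExe0M F h2 (d - 1) r a b habA hrprime hr2 hrq (by rw [hk2]; exact hk) hie
            (by rw [hk2]; exact hqo)
        have hmain := hNeg F ((Fin (d - 1) ⊕ Fin (d - 1)) ⊕ Fin 2) (Cfsg.quadFormMinus (d - 1) F a b)
          hQnd h2 r hrprime hr2 hrq W₀ m hm hmn hneven hW₀m hW₀nd hE0 hrΩ hFix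
        rw [hc', hi', hcard] at hmain
        rcases hmain with ⟨h1, h2'⟩ | ⟨h1, h2'⟩
        · rcases Nat.even_or_odd i with hie | hio
          · right; right
            have hci : c = i := by rw [hc, if_pos hie]
            exact ⟨hrp, hr2', hie, Or.inr ⟨by omega, by omega, hml, h2'⟩⟩
          · right; left
            exact ⟨hrp, hr2', hio, Or.inr ⟨h1, hml, h2'⟩⟩
        · have h3 : Odd i ∨ Even (2 * d / i) := by
            by_contra hcon
            exact h2' ⟨fun h => absurd h hQnotplus, fun h => absurd h hcon⟩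
          rcases Nat.even_or_odd i with hie | hio
          · right; right
            refine ⟨hrp, hr2', hie, Or.inl ⟨h1, ?_⟩⟩
            rcases h3 with h | h
            · exact absurd h (Nat.not_odd_iff_even.mpr hie)
            · exact h
          · right; left
            exact ⟨hrp, hr2', hio, Or.inl h1⟩
      · intro hR
        apply hPos F ((Fin (d - 1) ⊕ Fin (d - 1)) ⊕ Fin 2) (Cfsg.quadFormMinus (d - 1) F a b) hQnd
          h2 r hrprime hr2 hrq W₀ m hm hmn hW₀m hW₀nd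
        rw [hc', hi', hcard]
        rcases hR with ⟨h, -⟩ | ⟨-, -, hio, h1 | ⟨-, -, h⟩⟩ | ⟨-, -, hie, ⟨h1, h2'⟩ | ⟨-, -, -, h⟩⟩
        · exact absurd h hr2
        · right
          refine ⟨h1, ?_⟩
          intro hiff
          exact hQnotplus (hiff.mpr (Or.inl hio))
        · exact Or.inl h
        · right
          refine ⟨h1, ?_⟩
          intro hiff
          exact hQnotplus (hiff.mpr (Or.inr h2'))
        · exact Or.inl h

end Cfsg.Agent.Lib.Helper64.OParM
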