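-- Team project OPARM (S5991): helper70's generic level-1 packages [TWO], [POS], [NEG] instantiated
-- from the landed OHYP / OPAR pieces (helper64; pure glue, no new mathematics).
import Cfsg.Agent.Lib.Helper70.OPar.Defs
import Cfsg.Agent.Lib.Helper23.OHyp.Final
import Cfsg.Agent.Lib.Helper27.OHyp.BlkFinal
import Cfsg.Agent.Lib.Helper12.OHyp.ExDefs
import Cfsg.Agent.Lib.Helper12.OHyp.EBlkOdd
import Cfsg.Agent.Lib.Helper54.OHyp.EBlkEven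
import Cfsg.Agent.Lib.Helper15.OHyp.EMQ
import Cfsg.Agent.Lib.Helper37.OHyp.EMX
import Cfsg.Agent.Lib.Helper12.OHyp.ESim
import Cfsg.Agent.Lib.Helper13.OHyp.EConj
import Cfsg.Agent.Lib.Helper45.OPar.Scal
import Cfsg.Agent.Lib.Helper25.OPar.Emb
import Cfsg.Agent.Lib.Helper54.OPar.GeomIso
import Cfsg.Agent.Lib.Helper15.OPar.Inv1
import Cfsg.Agent.Lib.Helper34.OPar.Inv2
import Cfsg.Agent.Lib.Helper15.OPar.Two
import Cfsg.Agent.Lib.Helper84.OPar.Pos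
import Cfsg.Agent.Lib.Helper72.OPar.ExeK
import Cfsg.Agent.Lib.Helper61.OPar.CntPar
import Cfsg.Agent.Lib.Helper96.OPar.Neg

set_option autoImplicit false

namespace Cfsg.Agent.Lib.Helper64.OParM

open Cfsg.Agent.Lib.Helper23.OHyp Cfsg.Agent.Lib.Helper70.OPar

universe u

theorem gBlk : PkgBlk.{u} := Cfsg.Agent.Lib.Helper27.OHyp.pkgBlk
theorem gSplit : PkgSplit.{u} := Cfsg.Agent.Lib.Helper97.OHyp.pkgSplit
theorem gDiv : PkgDiv.{u} := pkgDiv_of_blk gBlk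
theorem gSub : PkgSub.{u} := pkgSub_of_blk gBlk
theorem gPerp : PkgPerp.{u} := Cfsg.Agent.Lib.Helper87.OHyp.pkgPerp
theorem gSum : PkgSum.{u} := Cfsg.Agent.Lib.Helper1.OHyp.pkgSum
theorem gOddOmega : PkgOddOmega.{u} := Cfsg.Agent.Lib.Helper97.OHyp.pkgOddOmega
theorem gExist : PkgExist.{u} :=
  Cfsg.Agent.Lib.Helper12.OHyp.pkgExist_of Cfsg.Agent.Lib.Helper12.OHyp.pkgEBlkOdd
    (Cfsg.Agent.Lib.Helper54.OHyp.pkgEBlkEven_of gSplit gDiv)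
    Cfsg.Agent.Lib.Helper15.OHyp.pkgEMQ Cfsg.Agent.Lib.Helper37.OHyp.pkgEMX
    Cfsg.Agent.Lib.Helper12.OHyp.pkgESim Cfsg.Agent.Lib.Helper13.OHyp.pkgEConj
theorem gScal : PkgScal.{u} := Cfsg.Agent.Lib.Helper45.OPar.pkgScal
theorem gUniv : PkgUniv.{u} := Cfsg.Agent.Lib.Helper45.OPar.pkgUniv
theorem gEmb : PkgEmb.{u} := Cfsg.Agent.Lib.Helper25.OPar.pkgEmb_of gUniv gPerp
theorem gGeomIso : PkgGeomIso.{u} := Cfsg.Agent.Lib.Helper54.OPar.pkgGeomIso_of gEmb gPerp gSum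
theorem gInv1 : PkgInv1.{u} := Cfsg.Agent.Lib.Helper15.OPar.pkgInv1_of gGeomIso
theorem gInv2 : PkgInv2.{u} := Cfsg.Agent.Lib.Helper34.OPar.pkgInv2
theorem gTwo : PkgTwo.{u} := Cfsg.Agent.Lib.Helper15.OPar.pkgTwo_of gScal gInv1 gInv2
theorem gPos : PkgPos.{u} :=
  Cfsg.Agent.Lib.Helper84.OPar.pkgPos_of gScal gSplit gDiv gSub gSum gGeomIso
theorem gExeK : PkgExeK.{u} := Cfsg.Agent.Lib.Helper72.OPar.pkgExeK_of gExist
theorem gCntPar : PkgCntPar.{u} :=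
  Cfsg.Agent.Lib.Helper61.OPar.pkgCntPar_of gSplit gDiv gExeK gEmb
theorem gNeg : PkgNeg.{u} :=
  Cfsg.Agent.Lib.Helper96.OPar.pkgNeg_of gScal gSplit gDiv gOddOmega gExeK gCntPar

end Cfsg.Agent.Lib.Helper64.OParM
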