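-- Team project OPARM (S5991): the assembly [UEGLUE] of package [UNIME] (helper64).
import Mathlib
import Cfsg.Prelude.Def_GeometricClasses
import Cfsg.Prelude.Def_Classical
import Cfsg.Agent.Lib.Helper64.OParM.UEDefs

set_option autoImplicit false
open scoped MatrixGroups
open Matrix

namespace Cfsg.Agent.Lib.Helper64.OParM

open Cfsg.Agent.Lib.Helper23.OHyp Cfsg.Agent.Lib.Helper70.OPar

universe u

section

variable {F : Type u} [Field F] {ι : Type} [Fintype ι] [DecidableEq ι]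

/-- `W'` has an `s`-witness of size `j`. -/
def Wit (Q : (ι → F) → F) (W' : Submodule F (ι → F)) (s : F) (j : ℕ) : Prop :=
  ∃ w ∈ W', ∃ c : F, c ≠ 0 ∧ Q w = c ^ 2 * s ∧
    ∃ U : Submodule F (ι → F), U ≤ W' ∧ (∀ u ∈ U, Q u = 0) ∧
      (∀ u ∈ U, QuadraticMap.polar Q u w = 0) ∧ 2 * Module.finrank F U + 1 = j

omit [DecidableEq ι] in
theorem ue_polar_isom {Q : (ι → F) → F} {x : Matrix ι ι F} (hx : ∀ v, Q (x *ᵥ v) = Q v)
    (u v : ι → F) : QuadraticMap.polar Q (x *ᵥ u) (x *ᵥ v) = QuadraticMap.polar Q u v := by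
  unfold QuadraticMap.polar
  rw [← Matrix.mulVec_add, hx, hx, hx]

omit [Fintype ι] [DecidableEq ι] in
theorem ue_polar_self {Q : (ι → F) → F} (hQ : Cfsg.Geo.IsNondegenerateQuadraticForm Q)
    (w : ι → F) : QuadraticMap.polar Q w w = 2 * Q w := by
  unfold QuadraticMap.polar
  have h : w + w = (2 : F) • w := (two_smul F w).symm
  rw [h, hQ.smul]
  ring

theorem ue_toLin_inj (g : GL ι F) : Function.Injective (Matrix.toLin' (g : Matrix ι ι F)) := by
  intro v v' h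
  have h1 := congrArg (fun z => ((g⁻¹ : GL ι F) : Matrix ι ι F) *ᵥ z) h
  simp only [Matrix.toLin'_apply, Matrix.mulVec_mulVec] at h1
  rw [← Units.val_mul, inv_mul_cancel, Units.val_one, Matrix.one_mulVec, Matrix.one_mulVec] at h1
  exact h1

theorem ue_isom_of_mem {Q : (ι → F) → F} {g : GL ι F} (hg : g ∈ Cfsg.isometryGroup F Q) :
    ∀ v, Q ((g : Matrix ι ι F) *ᵥ v) = Q v := fun v => hg v v

theorem wit_map {Q : (ι → F) → F} (g : GL ι F) (hg : g ∈ Cfsg.isometryGroup F Q)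
    (W' W'' : Submodule F (ι → F)) (h : W'.map (Matrix.toLin' (g : Matrix ι ι F)) ≤ W'')
    (s : F) (j : ℕ) (hw : Wit Q W' s j) : Wit Q W'' s j := by
  obtain ⟨w, hwW, c, hc, hQw, U, hUW, hUs, hUp, hUd⟩ := hw
  have hiso := ue_isom_of_mem hg
  refine ⟨(g : Matrix ι ι F) *ᵥ w, ?_, c, hc, ?_, U.map (Matrix.toLin' (g : Matrix ι ι F)), ?_, ?_,
    ?_, ?_⟩
  · apply h
    exact ⟨w, hwW, by rw [Matrix.toLin'_apply]⟩
  · rw [hiso, hQw]
  · exact le_trans (Submodule.map_mono hUW) h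
  · rintro _ ⟨u, hu, rfl⟩
    rw [Matrix.toLin'_apply, hiso]
    exact hUs u hu
  · rintro _ ⟨u, hu, rfl⟩
    rw [Matrix.toLin'_apply, ue_polar_isom hiso]
    exact hUp u hu
  · rw [← hUd]
    congr 2
    exact (Submodule.equivMapOfInjective _ (ue_toLin_inj g) U).finrank_eq.symm

theorem wit_not_both (hL : PkgUEL.{u}) [Fintype F] {Q : (ι → F) → F}
    (hQ : Cfsg.Geo.IsNondegenerateQuadraticForm Q) (h2 : (2 : F) ≠ 0)
    (W' : Submodule F (ι → F)) (hNd : Nd Q W') (ν : F) (hν : ¬ IsSquare ν) :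
    ¬ (Wit Q W' 1 (Module.finrank F W') ∧ Wit Q W' ν (Module.finrank F W')) := by
  rintro ⟨⟨w₁, hw₁, c₁, hc₁, hQ₁, U₁, hU₁, hU₁s, hU₁p, hd₁⟩,
    ⟨w₂, hw₂, c₂, hc₂, hQ₂, U₂, hU₂, hU₂s, hU₂p, hd₂⟩⟩
  have hν0 : ν ≠ 0 := by
    rintro rfl
    exact hν ⟨0, by ring⟩
  have hQ₁' : Q w₁ ≠ 0 := by
    rw [hQ₁, mul_one]; exact pow_ne_zero 2 hc₁
  have hQ₂' : Q w₂ ≠ 0 := by
    rw [hQ₂]; exact mul_ne_zero (pow_ne_zero 2 hc₂) hν0
  obtain ⟨c, hc⟩ := hL F ι Q hQ h2 W' hNd w₂ w₁ hw₂ hw₁ hQ₂' hQ₁' U₂ U₁ hU₂ hU₁ hU₂s hU₁s hU₂p hU₁p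
    hd₂ hd₁
  apply hν
  refine ⟨c * c₁ / c₂, ?_⟩
  rw [hQ₂, hQ₁, mul_one] at hc
  field_simp
  linear_combination hc

/-- [UEA] applied to a concrete isometry. -/
theorem wit_of_uea (hA : PkgUEA.{u}) {Q : (ι → F) → F}
    (hQ : Cfsg.Geo.IsNondegenerateQuadraticForm Q) (h2 : (2 : F) ≠ 0)
    (x : Matrix ι ι F) (hx : ∀ v, Q (x *ᵥ v) = Q v) (t : ι → F) (s : F) (hQt : Q t = s)
    (hN3 : (x - 1) * (x - 1) * (x - 1) = 0) (hNt : (x - 1) *ᵥ t = 0)
    (hker : ∀ v : ι → F, (x - 1) *ᵥ v = 0 → ∃ (c : F) (u : ι → F), v = c • t + (x - 1) *ᵥ u)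
    (hrank : Module.finrank F (LinearMap.range (Matrix.toLin' ((x - 1) * (x - 1)))) ≤ 1)
    (W : Submodule F (ι → F)) (hInv : Inv x W) (hNd : Nd Q W)
    (hmod : Module.finrank F W % 4 = 1) : Wit Q W s (Module.finrank F W) := by
  let B : (ι → F) →ₗ[F] (ι → F) →ₗ[F] F :=
    LinearMap.mk₂ F (QuadraticMap.polar Q) hQ.polar_bilinear.add_left
      (fun c x v => by rw [hQ.polar_bilinear.smul_left, smul_eq_mul])
      hQ.polar_bilinear.add_right
      (fun c v x => by rw [hQ.polar_bilinear.smul_right, smul_eq_mul])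
  have hB : ∀ u v, B u v = QuadraticMap.polar Q u v := fun u v => rfl
  have hNx : ∀ v, Matrix.toLin' (x - 1) v = x *ᵥ v - v := by
    intro v
    rw [Matrix.toLin'_apply, Matrix.sub_mulVec, Matrix.one_mulVec]
  obtain ⟨w, hwW, c, hc, hBw, U, hUW, hUs, hUp, hUd⟩ :=
    hA F (ι → F) h2 B (Matrix.toLin' (x - 1)) t
      (fun u v => by rw [hB, hB]; exact QuadraticMap.polar_comm Q u v)
      (fun u v => by
        rw [hB, hB, hNx, hNx, add_sub_cancel, add_sub_cancel]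
        exact ue_polar_isom hx u v)
      (fun v => by
        rw [Matrix.toLin'_apply, Matrix.toLin'_apply, Matrix.toLin'_apply, Matrix.mulVec_mulVec,
          Matrix.mulVec_mulVec, hN3, Matrix.zero_mulVec])
      (by rw [Matrix.toLin'_apply]; exact hNt)
      (fun v hv => by
        rw [Matrix.toLin'_apply] at hv
        obtain ⟨c, u, hcu⟩ := hker v hv
        exact ⟨c, u, by rw [Matrix.toLin'_apply]; exact hcu⟩)
      (by rw [← Matrix.toLin'_mul]; exact hrank)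
      W
      (fun w hw => by
        rw [hNx]
        refine W.sub_mem (hInv ⟨w, hw, ?_⟩) hw
        rw [Matrix.toLin'_apply])
      (fun w hw hne => (hNd w hw hne).2)
      hmod
  refine ⟨w, hwW, c, hc, ?_, U, hUW, ?_, ?_, hUd⟩
  · rw [hB, hB, ue_polar_self hQ, ue_polar_self hQ, hQt] at hBw
    have h3 : (2 : F) * Q w = 2 * (c ^ 2 * s) := by rw [hBw]; ring
    exact mul_left_cancel₀ h2 h3
  · intro u hu
    have h3 := hUs u hu
    rw [hB, ue_polar_self hQ] at h3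
    rcases mul_eq_zero.mp h3 with h4 | h4
    · exact absurd h4 h2
    · exact h4
  · intro u hu
    have h3 := hUp u hu
    rw [hB] at h3
    exact h3

end

theorem ue_nd_top {F : Type u} [Field F] {ι : Type} [Fintype ι] [DecidableEq ι]
    {Q : (ι → F) → F} (hQ : Cfsg.Geo.IsNondegenerateQuadraticForm Q) : Nd Q ⊤ := by
  intro w _ hne
  obtain ⟨⟨x, hx⟩, ⟨y, hy⟩⟩ := hQ.nondegenerate w hne
  exact ⟨⟨x, Submodule.mem_top, hx⟩, ⟨y, Submodule.mem_top, hy⟩⟩

theorem ue_inv_one {F : Type u} [Field F] {ι : Type} [Fintype ι] [DecidableEq ι]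
    (W : Submodule F (ι → F)) : Inv (1 : Matrix ι ι F) W := by
  unfold Cfsg.Agent.Lib.Helper23.OHyp.Inv
  rw [Matrix.toLin'_one]
  rintro _ ⟨w, hw, rfl⟩
  exact hw

theorem pkgUEGlue : PkgUEGlue.{u} := by
  intro hA hL hX hWitt hMQ hPerp
  intro F _ _ p _ _ hp2 k m a b hab hk3 hm hmk hko W₀ hW₀m hW₀nd
  have hpprime : p.Prime := Fact.out
  have h2 : (2 : F) ≠ 0 := by
    intro h
    have h' : ((2 : ℕ) : F) = 0 := by exact_mod_cast h
    rw [CharP.cast_eq_zero_iff F p] at h'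
    exact hp2 ((Nat.prime_dvd_prime_iff_eq hpprime Nat.prime_two).mp h')
  obtain ⟨hQ, -⟩ := hMQ F h2 k a b hab
  have hchar : ringChar F ≠ 2 := by
    rw [ringChar.eq F p]; exact hp2
  obtain ⟨ν, hν⟩ := FiniteField.exists_nonsquare hchar
  have hν0 : ν ≠ 0 := by
    rintro rfl
    exact hν ⟨0, by ring⟩
  have hcard : Fintype.card (MI k) = 2 * k + 2 := by
    simp
    omega
  have htop : Module.finrank F (⊤ : Submodule F (MI k → F)) = 2 * k + 2 := by
    rw [finrank_top, Module.finrank_fintype_fun_eq_card, hcard]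
  have hNdTop : Nd (Cfsg.quadFormMinus k F a b) ⊤ := ue_nd_top hQ
  -- the key step, for a target space `T` of finrank `j ≡ 1 (mod 4)` without an `s`-witness
  have hchoose : ∀ T : Submodule F (MI k → F), Nd (Cfsg.quadFormMinus k F a b) T →
      ∃ s : F, s ≠ 0 ∧ ¬ Wit (Cfsg.quadFormMinus k F a b) T s (Module.finrank F T) := by
    intro T hT
    by_cases h1 : Wit (Cfsg.quadFormMinus k F a b) T 1 (Module.finrank F T)
    · refine ⟨ν, hν0, fun h => ?_⟩
      exact wit_not_both hL hQ h2 T hT ν hν ⟨h1, h⟩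
    · exact ⟨1, one_ne_zero, h1⟩
  have hm4 : m % 4 = 1 ∨ m % 4 = 3 := by
    obtain ⟨e, he⟩ := hm
    omega
  rcases hm4 with hm1 | hm3
  · -- `m ≡ 1 (mod 4)`: the target is `W₀`
    obtain ⟨s, hs, hno⟩ := hchoose W₀ hW₀nd
    obtain ⟨x, t, hxΩ, hxp, hx1, hQt, hN3, hNt, hker, hrank⟩ := hX F p hp2 k a b hab hko s hs
    refine ⟨x, hxΩ, hxp, hx1, ?_⟩
    intro W hMem hInv
    obtain ⟨hWm, hWnd, hWiso⟩ := hMem
    obtain ⟨g, hg, hgW⟩ := hWitt F (MI k) (Cfsg.quadFormMinus k F a b) hQ W W₀ hWiso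
    have hxiso : ∀ v, Cfsg.quadFormMinus k F a b ((x : Matrix (MI k) (MI k) F) *ᵥ v) =
        Cfsg.quadFormMinus k F a b v := by
      obtain ⟨y, -, rfl⟩ := hxΩ
      intro v
      exact y.2 v v
    have hwit := wit_of_uea hA hQ h2 (x : Matrix (MI k) (MI k) F) hxiso t s hQt hN3 hNt hker hrank
      W hInv hWnd (by rw [hWm]; exact hm1)
    apply hno
    rw [hW₀m, ← hWm]
    exact wit_map g hg W W₀ (le_of_eq hgW) s _ hwit
  · -- `m ≡ 3 (mod 4)`: the target is the orthogonal complement of `W₀`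
    obtain ⟨T, -, -, hTnd, hTperp, hTsup, hTdim⟩ :=
      hPerp F (MI k) (Cfsg.quadFormMinus k F a b) hQ (1 : Matrix (MI k) (MI k) F)
        (fun v => by rw [Matrix.one_mulVec]) (by rw [Matrix.det_one]; exact isUnit_one)
        ⊤ W₀ le_top (ue_inv_one ⊤) (ue_inv_one W₀) hNdTop hW₀nd
    have hTfin : Module.finrank F T = 2 * k + 2 - m := by
      rw [htop, hW₀m] at hTdim
      omega
    obtain ⟨s, hs, hno⟩ := hchoose T hTnd
    obtain ⟨x, t, hxΩ, hxp, hx1, hQt, hN3, hNt, hker, hrank⟩ := hX F p hp2 k a b hab hko s hs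
    refine ⟨x, hxΩ, hxp, hx1, ?_⟩
    intro W hMem hInv
    obtain ⟨hWm, hWnd, hWiso⟩ := hMem
    obtain ⟨g, hg, hgW⟩ := hWitt F (MI k) (Cfsg.quadFormMinus k F a b) hQ W W₀ hWiso
    have hxiso : ∀ v, Cfsg.quadFormMinus k F a b ((x : Matrix (MI k) (MI k) F) *ᵥ v) =
        Cfsg.quadFormMinus k F a b v := by
      obtain ⟨y, -, rfl⟩ := hxΩ
      intro v
      exact y.2 v v
    have hdet : IsUnit (x : Matrix (MI k) (MI k) F).det :=
      (Matrix.isUnit_iff_isUnit_det _).mp x.isUnit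
    obtain ⟨W', -, hW'inv, hW'nd, hW'perp, hW'sup, hW'dim⟩ :=
      hPerp F (MI k) (Cfsg.quadFormMinus k F a b) hQ (x : Matrix (MI k) (MI k) F) hxiso hdet
        ⊤ W le_top (by unfold Cfsg.Agent.Lib.Helper23.OHyp.Inv; exact le_top) hInv hNdTop hWnd
    have hW'fin : Module.finrank F W' = 2 * k + 2 - m := by
      rw [htop, hWm] at hW'dim
      omega
    have hkodd : (2 * k + 2 - m) % 4 = 1 := by
      obtain ⟨e, he⟩ := hko
      omega
    have hwit := wit_of_uea hA hQ h2 (x : Matrix (MI k) (MI k) F) hxiso t s hQt hN3 hNt hker hrank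
      W' hW'inv hW'nd (by rw [hW'fin]; exact hkodd)
    have hgiso := ue_isom_of_mem hg
    have hmap : W'.map (Matrix.toLin' (g : Matrix (MI k) (MI k) F)) ≤ T := by
      rintro _ ⟨v, hv, rfl⟩
      rw [Matrix.toLin'_apply]
      have hmem : (g : Matrix (MI k) (MI k) F) *ᵥ v ∈ W₀ ⊔ T := by rw [hTsup]; exact Submodule.mem_top
      obtain ⟨a', ha', b', hb', hab'⟩ := Submodule.mem_sup.mp hmem
      have ha0 : a' = 0 := by
        by_contra hne
        obtain ⟨-, ⟨y, hy, hy0⟩⟩ := hW₀nd a' ha' hne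
        apply hy0
        have hy' : y ∈ W.map (Matrix.toLin' (g : Matrix (MI k) (MI k) F)) := by rw [hgW]; exact hy
        obtain ⟨w, hw, rfl⟩ := hy'
        rw [Matrix.toLin'_apply]
        have h3 : QuadraticMap.polar (Cfsg.quadFormMinus k F a b)
            ((g : Matrix (MI k) (MI k) F) *ᵥ v) ((g : Matrix (MI k) (MI k) F) *ᵥ w) = 0 := by
          rw [ue_polar_isom hgiso, QuadraticMap.polar_comm]
          exact hW'perp w hw v hv
        have h4 : QuadraticMap.polar (Cfsg.quadFormMinus k F a b) b'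
            ((g : Matrix (MI k) (MI k) F) *ᵥ w) = 0 := by
          rw [QuadraticMap.polar_comm]
          refine hTperp _ ?_ b' hb'
          rw [← hgW]
          exact ⟨w, hw, by rw [Matrix.toLin'_apply]⟩
        rw [← hab', hQ.polar_bilinear.add_left, h4, add_zero] at h3
        exact h3
      rw [ha0, zero_add] at hab'
      rw [← hab']
      exact hb'
    apply hno
    rw [hTfin, ← hW'fin]
    exact wit_map g hg W' T hmap s _ hwit

end Cfsg.Agent.Lib.Helper64.OParM
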