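-- Team project OPARM (S5991): the frozen statement from the four packages of the [UNIME] cut still
-- open at 22:40Z ([UEA], [UEL], [UEX], [UEW]); everything else instantiated (helper64).
import Cfsg.Agent.Lib.Helper64.OParM.Asm
import Cfsg.Agent.Lib.Helper64.OParM.Gen
import Cfsg.Agent.Lib.Helper64.OParM.UEGlue
import Cfsg.Agent.Lib.Helper87.OParM.MinusQ
import Cfsg.Agent.Lib.Helper87.OParM.Exe0M
import Cfsg.Agent.Lib.Helper92.OParM.Om1M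
import Cfsg.Agent.Lib.Helper92.OParM.Om2M
import Cfsg.Agent.Lib.Helper8.OParM.UniM3
import Cfsg.Agent.Lib.Helper8.OParM.UniM1

set_option autoImplicit false
open scoped MatrixGroups
open Matrix

namespace Cfsg.Agent.Lib.Helper64.OParM

open Cfsg.Agent.Lib.Helper23.OHyp Cfsg.Agent.Lib.Helper70.OPar

universe u

/-- [UNIME] from the four leaves of its cut. -/
theorem pkgUniME_of_leaves (hA : PkgUEA.{u}) (hL : PkgUEL.{u}) (hX : PkgUEX.{u})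
    (hW : PkgUEW.{u}) : PkgUniME.{u} :=
  pkgUEGlue hA hL hX hW Cfsg.Agent.Lib.Helper87.OParM.pkgMinusQ gPerp

/-- The frozen statement of S5991 from [UEA], [UEL], [UEX], [UEW]. -/
theorem result_of_leaves (hA : PkgUEA.{u}) (hL : PkgUEL.{u}) (hX : PkgUEX.{u}) (hW : PkgUEW.{u})
    {F : Type u} [Field F] [Fintype F] {p : ℕ} [Fact p.Prime] [CharP F p] {q : ℕ} (hq : Fintype.card F = q)
    (hodd : Odd q) (d m : ℕ) (hd : 4 ≤ d) (hm : Odd m) (hmd : m < d) (a b : F) (hab : ∀ x y : F, x ^ 2 + a * x * y + b * y ^ 2 = 0 → x = 0 ∧ y = 0)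
    (W₀ : Submodule F ((Fin (d - 1) ⊕ Fin (d - 1)) ⊕ Fin 2 → F)) (hW₀ : Module.finrank F ↥W₀ = m ∧ Cfsg.Geo.IsNondegenerateOn (QuadraticMap.polar (Cfsg.quadFormMinus (d - 1) F a b)) W₀)
    (r : ℕ) [Fact r.Prime]
    (hrΩ : r ∣ Nat.card {W : Submodule F ((Fin (d - 1) ⊕ Fin (d - 1)) ⊕ Fin 2 → F) // Module.finrank F ↥W = m ∧ Cfsg.Geo.IsNondegenerateOn (QuadraticMap.polar (Cfsg.quadFormMinus (d - 1) F a b)) W ∧ Cfsg.Geo.AreIsometricFor (Cfsg.quadFormMinus (d - 1) F a b) W W₀})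
    (i c : ℕ) (hi : i = orderOf (q : ZMod r)) (hc : c = if Even i then i else 2 * i) :
    (∀ x : GL ((Fin (d - 1) ⊕ Fin (d - 1)) ⊕ Fin 2) F, x ∈ Cfsg.Geo.omegaGL (Cfsg.quadFormMinus (d - 1) F a b) →
      (∃ z : F, ((x ^ r : GL ((Fin (d - 1) ⊕ Fin (d - 1)) ⊕ Fin 2) F) : Matrix ((Fin (d - 1) ⊕ Fin (d - 1)) ⊕ Fin 2) ((Fin (d - 1) ⊕ Fin (d - 1)) ⊕ Fin 2) F) = z • (1 : Matrix ((Fin (d - 1) ⊕ Fin (d - 1)) ⊕ Fin 2) ((Fin (d - 1) ⊕ Fin (d - 1)) ⊕ Fin 2) F)) →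
      (∀ z : F, (x : Matrix ((Fin (d - 1) ⊕ Fin (d - 1)) ⊕ Fin 2) ((Fin (d - 1) ⊕ Fin (d - 1)) ⊕ Fin 2) F) ≠ z • (1 : Matrix ((Fin (d - 1) ⊕ Fin (d - 1)) ⊕ Fin 2) ((Fin (d - 1) ⊕ Fin (d - 1)) ⊕ Fin 2) F)) →
      ∃ W : Submodule F ((Fin (d - 1) ⊕ Fin (d - 1)) ⊕ Fin 2 → F), (Module.finrank F ↥W = m ∧ Cfsg.Geo.IsNondegenerateOn (QuadraticMap.polar (Cfsg.quadFormMinus (d - 1) F a b)) W ∧ Cfsg.Geo.AreIsometricFor (Cfsg.quadFormMinus (d - 1) F a b) W W₀) ∧ W.map (Matrix.toLin' (x : Matrix ((Fin (d - 1) ⊕ Fin (d - 1)) ⊕ Fin 2) ((Fin (d - 1) ⊕ Fin (d - 1)) ⊕ Fin 2) F)) ≤ W) ↔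
    ((r = 2 ∧ (Even d ∨ q % 8 ≠ 7)) ∨
     (r ≠ p ∧ 2 < r ∧ Odd i ∧ ((2 * d) % c = 0 ∨ (c ≤ m ∧ 0 < m % c ∧ m % c < (2 * d) % c))) ∨
     (r ≠ p ∧ 2 < r ∧ Even i ∧ (((2 * d) % c = 0 ∧ Even ((2 * d) / i)) ∨ (0 < (2 * d) % c ∧ i ≤ m ∧ 0 < m % c ∧ m % c < (2 * d) % c)))) :=
  main gTwo gPos gNeg Cfsg.Agent.Lib.Helper87.OParM.pkgMinusQ
    Cfsg.Agent.Lib.Helper92.OParM.pkgOm1M Cfsg.Agent.Lib.Helper92.OParM.pkgOm2MA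
    Cfsg.Agent.Lib.Helper92.OParM.pkgOm2MB Cfsg.Agent.Lib.Helper87.OParM.pkgExe0M
    (Cfsg.Agent.Lib.Helper8.OParM.pkgUniM3_of Cfsg.Agent.Lib.Helper87.OParM.pkgMinusQ)
    (Cfsg.Agent.Lib.Helper8.OParM.pkgUniM1_of Cfsg.Agent.Lib.Helper87.OParM.pkgMinusQ)
    (pkgUniME_of_leaves hA hL hX hW)
    hq hodd d m hd hm hmd a b hab W₀ hW₀ r hrΩ i c hi hc

end Cfsg.Agent.Lib.Helper64.OParM
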